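import Cfsg.Agent.H12.PermHom
import Mathlib.GroupTheory.SpecificGroups.Alternating
import Mathlib.GroupTheory.GroupAction.MultipleTransitivity
import Mathlib.GroupTheory.Perm.Cycle.Concrete
import Mathlib.LinearAlgebra.Dimension.Finrank
import Mathlib.LinearAlgebra.FiniteDimensional.Lemmas

set_option autoImplicit false

/-! Submodules of the permutation module of the alternating group (S0714). -/

namespace Cfsg.Agent.H12

open Equiv MulAction

theorem swap_mul_swap_mem_alternating {α : Type*} [Fintype α] [DecidableEq α] {a b c d : α}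
    (hab : a ≠ b) (hcd : c ≠ d) : swap a b * swap c d ∈ alternatingGroup α := by
  rw [Perm.mem_alternatingGroup, Perm.sign_mul, Perm.sign_swap hab, Perm.sign_swap hcd]
  rfl

theorem permRep_alt_apply {α K : Type*} [Fintype α] [DecidableEq α] [Field K]
    (g : alternatingGroup α) (f : α → K) (x : α) :
    permRep K (alternatingGroup α) α g f x = f ((g : Perm α)⁻¹ x) := rfl

/-- the key step: a difference of basis vectors generates the sum-zero functions -/
theorem alt_key {α : Type*} [Fintype α] [DecidableEq α] (hα : 5 ≤ Fintype.card α) {K : Type*}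
    [Field K] (W : Subrepresentation (Cfsg.permRep K (alternatingGroup α) α))
    (hW : ¬ W.toSubmodule ≤ (permConstants K (alternatingGroup α) α).toSubmodule) :
    ∃ a b : α, a ≠ b ∧ (Pi.single a 1 - Pi.single b 1 : α → K) ∈ W.toSubmodule := by
  obtain ⟨f, hfW, hf⟩ := Set.not_subset.1 hW
  obtain ⟨a, b, hab⟩ : ∃ a b, f a ≠ f b := by
    by_contra hcon
    push Not at hcon
    apply hf
    obtain ⟨a₀⟩ : Nonempty α := by rw [← Fintype.card_pos_iff]; omega
    exact (mem_permConstants f).2 ⟨f a₀, fun x => hcon x a₀⟩
  have hab' : a ≠ b := fun h => hab (by rw [h])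
  -- three more points
  obtain ⟨c, hc⟩ : ∃ c, c ∉ ({a, b} : Finset α) := by
    by_contra hcon
    push Not at hcon
    have := Finset.card_le_card (fun x _ => hcon x : (Finset.univ : Finset α) ⊆ {a, b})
    rw [Finset.card_univ] at this
    have := Finset.card_le_two (a := a) (b := b)
    omega
  obtain ⟨d, hd⟩ : ∃ d, d ∉ ({a, b, c} : Finset α) := by
    by_contra hcon
    push Not at hcon
    have := Finset.card_le_card (fun x _ => hcon x : (Finset.univ : Finset α) ⊆ {a, b, c})
    rw [Finset.card_univ] at this
    have := Finset.card_le_three (a := a) (b := b) (c := c)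
    omega
  obtain ⟨e, he⟩ : ∃ e, e ∉ ({a, b, c, d} : Finset α) := by
    by_contra hcon
    push Not at hcon
    have := Finset.card_le_card (fun x _ => hcon x : (Finset.univ : Finset α) ⊆ {a, b, c, d})
    rw [Finset.card_univ] at this
    have := Finset.card_le_four (a := a) (b := b) (c := c) (d := d)
    omega
  simp only [Finset.mem_insert, Finset.mem_singleton, not_or] at hc hd he
  obtain ⟨hca, hcb⟩ := hc
  obtain ⟨hda, hdb, hdc⟩ := hd
  obtain ⟨hea, heb, hec, hed⟩ := he
  -- action on basis vectors
  have hact : ∀ {g : Perm α} (hg : g ∈ alternatingGroup α) (u : α → K), u ∈ W.toSubmodule →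
      (fun x => u (g⁻¹ x)) ∈ W.toSubmodule := fun {g} hg u hu =>
    W.apply_mem_toSubmodule ⟨g, hg⟩ hu
  have hs : ∀ (g : Perm α) (x : α) (y : K), (fun z => (Pi.single x y : α → K) (g⁻¹ z)) =
      Pi.single (g x) y := by
    intro g x y
    funext z
    by_cases h : z = g x
    · subst h; simp
    · rw [Pi.single_eq_of_ne h, Pi.single_eq_of_ne]
      intro h'
      exact h (by rw [← h']; simp)
  -- first step
  set x := f a - f b with hx
  set y := f c - f d with hy
  have hx0 : x ≠ 0 := sub_ne_zero.2 hab
  let E : α → α → K := fun i => Pi.single i 1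
  have hu : x • (E a - E b) + y • (E c - E d) ∈ W.toSubmodule := by
    have hg := swap_mul_swap_mem_alternating (α := α) hab' (Ne.symm hdc)
    have h1 := W.toSubmodule.sub_mem hfW (hact hg f hfW)
    convert h1 using 1
    funext z
    simp only [Pi.add_apply, Pi.sub_apply, Pi.smul_apply, smul_eq_mul, E]
    rw [mul_inv_rev, swap_inv, swap_inv, Perm.mul_apply]
    by_cases hza : z = a
    · subst hza
      rw [swap_apply_left, swap_apply_of_ne_of_ne (Ne.symm hcb) (Ne.symm hdb)]
      simp [Pi.single_apply, hab', Ne.symm hca, Ne.symm hda, hx]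
    by_cases hzb : z = b
    · subst hzb
      rw [swap_apply_right, swap_apply_of_ne_of_ne (Ne.symm hca) (Ne.symm hda)]
      simp [Pi.single_apply, Ne.symm hab', Ne.symm hcb, Ne.symm hdb, hx]
    by_cases hzc : z = c
    · subst hzc
      rw [swap_apply_of_ne_of_ne hca hcb, swap_apply_left]
      simp [Pi.single_apply, hca, hcb, Ne.symm hdc, hy]
    by_cases hzd : z = d
    · subst hzd
      rw [swap_apply_of_ne_of_ne hda hdb, swap_apply_right]
      simp [Pi.single_apply, hda, hdb, hdc, hy]
    · rw [swap_apply_of_ne_of_ne hza hzb, swap_apply_of_ne_of_ne hzc hzd]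
      simp [Pi.single_apply, hza, hzb, hzc, hzd]
  have hactE : ∀ {g : Perm α} (hg : g ∈ alternatingGroup α) (u : α → K), u ∈ W.toSubmodule →
      (fun x => u (g⁻¹ x)) ∈ W.toSubmodule := hact
  by_cases hy0 : y = 0
  · refine ⟨a, b, hab', ?_⟩
    rw [hy0, zero_smul, add_zero] at hu
    have := W.toSubmodule.smul_mem x⁻¹ hu
    rwa [smul_smul, inv_mul_cancel₀ hx0, one_smul] at this
  -- second step: v = E c + E e - 2 E d
  have hv : E c + E e - (2 : K) • E d ∈ W.toSubmodule := by
    have hg := swap_mul_swap_mem_alternating (α := α) hab' (Ne.symm hec)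
    have h1 := W.toSubmodule.add_mem hu (hact hg _ hu)
    have h2 : (fun z => (x • (E a - E b) + y • (E c - E d)) ((swap a b * swap c e)⁻¹ z)) =
        x • (E b - E a) + y • (E e - E d) := by
      have e1 := hs (swap a b * swap c e)
      funext z
      have e2 : ∀ i : α, E i ((swap a b * swap c e)⁻¹ z) = E ((swap a b * swap c e) i) z :=
        fun i => congrFun (e1 i 1) z
      simp only [Pi.add_apply, Pi.sub_apply, Pi.smul_apply, e2]
      simp only [Perm.mul_apply]
      rw [swap_apply_of_ne_of_ne (Ne.symm hca) (Ne.symm hea), swap_apply_left,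
        swap_apply_of_ne_of_ne (Ne.symm hcb) (Ne.symm heb), swap_apply_right,
        swap_apply_left, swap_apply_of_ne_of_ne hea heb,
        swap_apply_of_ne_of_ne hdc (Ne.symm hed), swap_apply_of_ne_of_ne hda hdb]
    rw [h2] at h1
    have h3 := W.toSubmodule.smul_mem y⁻¹ h1
    convert h3 using 1
    funext z
    simp only [Pi.add_apply, Pi.sub_apply, Pi.smul_apply, smul_eq_mul]
    field_simp
    ring
  -- third step
  have hthree : (3 : K) • (E e - E d) ∈ W.toSubmodule := by
    -- permutation swapping d and e (times swap a b)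
    have hg := swap_mul_swap_mem_alternating (α := α) hab' (Ne.symm hed)
    have h1 := W.toSubmodule.sub_mem hv (hact hg _ hv)
    have h2 : (fun z => (E c + E e - (2 : K) • E d) ((swap a b * swap d e)⁻¹ z)) =
        E c + E d - (2 : K) • E e := by
      have e1 := hs (swap a b * swap d e)
      funext z
      have e2 : ∀ i : α, E i ((swap a b * swap d e)⁻¹ z) = E ((swap a b * swap d e) i) z :=
        fun i => congrFun (e1 i 1) z
      simp only [Pi.add_apply, Pi.sub_apply, Pi.smul_apply, e2]
      simp only [Perm.mul_apply]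
      rw [swap_apply_of_ne_of_ne (Ne.symm hdc) (Ne.symm hec), swap_apply_of_ne_of_ne hca hcb,
        swap_apply_right, swap_apply_of_ne_of_ne hda hdb, swap_apply_left,
        swap_apply_of_ne_of_ne hea heb]
    rw [h2] at h1
    convert h1 using 1
    funext z
    simp only [Pi.add_apply, Pi.sub_apply, Pi.smul_apply, smul_eq_mul]
    ring
  by_cases h3 : (3 : K) = 0
  · -- v = E c + E e + E d
    have hv' : E c + E e + E d ∈ W.toSubmodule := by
      convert hv using 1
      funext z
      simp only [Pi.add_apply, Pi.sub_apply, Pi.smul_apply, smul_eq_mul]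
      linear_combination (E d z) * h3
    have hg := swap_mul_swap_mem_alternating (α := α) (Ne.symm hca) (Ne.symm hed)
    have h1 := W.toSubmodule.sub_mem hv' (hact hg _ hv')
    have h2 : (fun z => (E c + E e + E d) ((swap a c * swap d e)⁻¹ z)) =
        E a + E d + E e := by
      have e1 := hs (swap a c * swap d e)
      funext z
      have e2 : ∀ i : α, E i ((swap a c * swap d e)⁻¹ z) = E ((swap a c * swap d e) i) z :=
        fun i => congrFun (e1 i 1) z
      simp only [Pi.add_apply, e2]
      simp only [Perm.mul_apply]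
      rw [swap_apply_of_ne_of_ne (Ne.symm hdc) (Ne.symm hec), swap_apply_right,
        swap_apply_right, swap_apply_of_ne_of_ne hda hdc, swap_apply_left,
        swap_apply_of_ne_of_ne hea hec]
    rw [h2] at h1
    refine ⟨c, a, hca, ?_⟩
    convert h1 using 1
    funext z
    simp only [Pi.add_apply, Pi.sub_apply, E]
    ring
  · refine ⟨e, d, hed, ?_⟩
    have := W.toSubmodule.smul_mem (3 : K)⁻¹ hthree
    rwa [smul_smul, inv_mul_cancel₀ h3, one_smul] at this

theorem alt_submodules {α : Type*} [Fintype α] [DecidableEq α] (hα : 5 ≤ Fintype.card α)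
    {K : Type*} [Field K] (W : Subrepresentation (Cfsg.permRep K (alternatingGroup α) α)) :
    W.toSubmodule = ⊥ ∨ W = Cfsg.permConstants K (alternatingGroup α) α ∨
      W = Cfsg.permSumZero K (alternatingGroup α) α ∨ W.toSubmodule = ⊤ := by
  by_cases hW : W.toSubmodule ≤ (permConstants K (alternatingGroup α) α).toSubmodule
  · by_cases h0 : W.toSubmodule = ⊥
    · exact Or.inl h0
    · right; left
      apply Subrepresentation.ext
      apply le_antisymm hW
      obtain ⟨w, hwW, hw0⟩ := W.toSubmodule.ne_bot_iff.1 h0
      obtain ⟨c, hc⟩ := (mem_permConstants w).1 (hW hwW)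
      have hc0 : c ≠ 0 := by
        rintro rfl
        exact hw0 (funext hc)
      intro u hu
      obtain ⟨c', hc'⟩ := (mem_permConstants u).1 hu
      have : u = (c' * c⁻¹) • w := by
        funext x
        rw [hc' x, Pi.smul_apply, hc x, smul_eq_mul, mul_assoc, inv_mul_cancel₀ hc0, mul_one]
      rw [this]
      exact W.toSubmodule.smul_mem _ hwW
  · obtain ⟨a, b, hab, habW⟩ := alt_key hα W hW
    -- all differences
    have hdiff : ∀ c d : α, c ≠ d → (Pi.single c 1 - Pi.single d 1 : α → K) ∈ W.toSubmodule := by
      intro c d hcd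
      have h2 : IsMultiplyPretransitive (alternatingGroup α) α 2 := by
        have h3 := alternatingGroup.isMultiplyPretransitive α
        apply isMultiplyPretransitive_of_le' (n := Nat.card α - 2)
        · rw [Nat.card_eq_fintype_card]; omega
        · rw [Nat.card_eq_fintype_card, ENat.card_eq_coe_fintype_card]
          exact_mod_cast Nat.sub_le _ _
      obtain ⟨g, hg1, hg2⟩ := (is_two_pretransitive_iff.1 h2) hab hcd
      have h3 := W.apply_mem_toSubmodule g habW
      rw [map_sub, permRep_single, permRep_single, hg1, hg2] at h3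
      exact h3
    have hSW : (permSumZero K (alternatingGroup α) α).toSubmodule ≤ W.toSubmodule := by
      intro f hf
      rw [mem_permSumZero] at hf
      obtain ⟨a₀⟩ : Nonempty α := ⟨a⟩
      have h1 : f = ∑ x, f x • (Pi.single x 1 - Pi.single a₀ 1 : α → K) := by
        simp only [smul_sub, Finset.sum_sub_distrib, ← Finset.sum_smul, hf, zero_smul, sub_zero]
        funext z
        simp [Finset.sum_apply, Pi.single_apply]
      rw [h1]
      apply W.toSubmodule.sum_mem
      intro x _
      apply W.toSubmodule.smul_mem
      by_cases hx : x = a₀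
      · subst hx; rw [sub_self]; exact W.toSubmodule.zero_mem
      · exact hdiff x a₀ hx
    by_cases hWS : W.toSubmodule ≤ (permSumZero K (alternatingGroup α) α).toSubmodule
    · right; right; left
      exact Subrepresentation.ext (le_antisymm hWS hSW)
    · right; right; right
      obtain ⟨f, hfW, hf⟩ := Set.not_subset.1 hWS
      have hs0 : ∑ x, f x ≠ 0 := fun h => hf ((mem_permSumZero f).2 h)
      rw [eq_top_iff]
      intro u _
      have h1 : u - ((∑ x, u x) / (∑ x, f x)) • f ∈
          (permSumZero K (alternatingGroup α) α).toSubmodule := by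
        rw [mem_permSumZero]
        simp only [Pi.sub_apply, Pi.smul_apply, smul_eq_mul, Finset.sum_sub_distrib,
          ← Finset.mul_sum]
        field_simp
        ring
      have h2 := W.toSubmodule.add_mem (hSW h1)
        (W.toSubmodule.smul_mem ((∑ x, u x) / (∑ x, f x)) hfW)
      rwa [sub_add_cancel] at h2

end Cfsg.Agent.H12
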