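import Mathlib

set_option autoImplicit false

/-! Jordan's theorem on multiple transitivity (S0712). -/

namespace Cfsg.Agent.H12

open MulAction

theorem jordan_add_two {α : Type*} [Fintype α] [DecidableEq α]
    (G : Subgroup (Equiv.Perm α)) (hG : IsPreprimitive G α) (s : Set α) {m : ℕ}
    (hsm : s.ncard = m) (hm : m + 2 ≤ Fintype.card α)
    (h2 : IsMultiplyPretransitive (fixingSubgroup G s) (SubMulAction.ofFixingSubgroup G s) 2) :
    IsMultiplyPretransitive G α (m + 2) := by
  classical
  have hmt : IsMultiplyPretransitive G α m := by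
    rcases Nat.eq_zero_or_pos m with h0 | hpos
    · subst h0
      exact is_zero_pretransitive
    · obtain ⟨n, rfl⟩ : ∃ n, m = n + 1 := ⟨m - 1, by omega⟩
      have hprim : IsPreprimitive (fixingSubgroup G s) (SubMulAction.ofFixingSubgroup G s) :=
        isPreprimitive_of_is_two_pretransitive h2
      have h3 : IsMultiplyPreprimitive G α (n + 2) :=
        hG.isMultiplyPreprimitive hsm (by rw [Nat.card_eq_fintype_card]; omega) hprim
      have h4 : IsMultiplyPretransitive G α (n + 2) := h3.isMultiplyPretransitive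
      exact isMultiplyPretransitive_of_le (n := n + 2) (by omega) (by
        rw [Nat.card_eq_fintype_card]; omega)
  have hfin : Finite s := Set.toFinite s
  obtain ⟨e⟩ : Nonempty (Fin m ≃ s) := by
    refine ⟨(Finite.equivFinOfCardEq ?_).symm⟩
    rw [Nat.card_coe_set_eq, hsm]
  let z : Fin m ↪ α := e.toEmbedding.trans (Function.Embedding.subtype _)
  have hz : ∀ i, z i ∈ s := fun i => (e i).2
  have hz' : ∀ a ∈ s, ∃ i, z i = a := fun a ha => ⟨e.symm ⟨a, ha⟩, by
    change ((e (e.symm ⟨a, ha⟩) : s) : α) = a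
    rw [Equiv.apply_symm_apply]⟩
  -- normal form for embeddings
  have hnf : ∀ x : Fin (m + 2) ↪ α, ∃ g : G, (∀ i : Fin m, g • x (Fin.castAdd 2 i) = z i) ∧
      g • x (Fin.natAdd m 0) ∉ s ∧ g • x (Fin.natAdd m 1) ∉ s := by
    intro x
    obtain ⟨g, hg⟩ := MulAction.exists_smul_eq (M := G)
      ((Fin.castAddEmb 2).trans x : Fin m ↪ α) z
    have hg' : ∀ i : Fin m, g • x (Fin.castAdd 2 i) = z i := fun i => DFunLike.congr_fun hg i
    have hout : ∀ j : Fin 2, g • x (Fin.natAdd m j) ∉ s := by
      intro j hj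
      obtain ⟨i, hi⟩ := hz' _ hj
      rw [← hg' i] at hi
      have h1 := x.injective (MulAction.injective g hi)
      have h2 := congrArg Fin.val h1
      simp at h2
      have := i.2
      omega
    exact ⟨g, hg', hout 0, hout 1⟩
  refine ⟨fun x y => ?_⟩
  obtain ⟨g, hg, hg0, hg1⟩ := hnf x
  obtain ⟨h, hh, hh0, hh1⟩ := hnf y
  have hx01 : g • x (Fin.natAdd m 0) ≠ g • x (Fin.natAdd m 1) := by
    intro h1
    have h2 := x.injective (MulAction.injective g h1)
    have h3 := congrArg Fin.val h2
    simp at h3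
  have hy01 : h • y (Fin.natAdd m 0) ≠ h • y (Fin.natAdd m 1) := by
    intro h1
    have h2 := y.injective (MulAction.injective h h1)
    have h3 := congrArg Fin.val h2
    simp at h3
  rw [is_two_pretransitive_iff] at h2
  obtain ⟨k, hk0, hk1⟩ := h2 (a := ⟨g • x (Fin.natAdd m 0), hg0⟩)
    (b := ⟨g • x (Fin.natAdd m 1), hg1⟩) (c := ⟨h • y (Fin.natAdd m 0), hh0⟩)
    (d := ⟨h • y (Fin.natAdd m 1), hh1⟩) (fun h => hx01 (congrArg Subtype.val h))
    (fun h => hy01 (congrArg Subtype.val h))
  have hk0' := congrArg Subtype.val hk0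
  have hk1' := congrArg Subtype.val hk1
  change (k : G) • (g • x (Fin.natAdd m 0)) = h • y (Fin.natAdd m 0) at hk0'
  change (k : G) • (g • x (Fin.natAdd m 1)) = h • y (Fin.natAdd m 1) at hk1'
  refine ⟨h⁻¹ * (k : G) * g, ?_⟩
  apply Function.Embedding.ext
  intro i
  change (h⁻¹ * (k : G) * g) • x i = y i
  rw [mul_smul, mul_smul, inv_smul_eq_iff]
  induction i using Fin.addCases with
  | left i =>
    rw [hg i, hh i]
    exact (mem_fixingSubgroup_iff G).1 k.2 _ (hz i)
  | right j =>
    fin_cases j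
    · exact hk0'
    · exact hk1'

end Cfsg.Agent.H12
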