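import Mathlib

set_option autoImplicit false

/-! Bound for the minimal degree of a multiply transitive group (S0711). -/

namespace Cfsg.Agent.H12

open MulAction

theorem exists_fixing_mapping {α : Type*} [Fintype α] [DecidableEq α]
    {G : Subgroup (Equiv.Perm α)} {k : ℕ} (hkn : k ≤ Fintype.card α)
    (hG : IsMultiplyPretransitive G α k) (F : Finset α) (hF : F.card + 1 ≤ k) {a b : α}
    (ha : a ∉ F) (hb : b ∉ F) : ∃ h ∈ G, (∀ x ∈ F, h x = x) ∧ h a = b := by
  have h1 : IsMultiplyPretransitive (fixingSubgroup G (F : Set α))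
      (SubMulAction.ofFixingSubgroup G (F : Set α)) 1 :=
    SubMulAction.ofFixingSubgroup.isMultiplyPretransitive' (n := k) _
      (by rw [Set.ncard_coe_finset]; exact hF)
      (by rw [ENat.card_eq_coe_fintype_card]; exact_mod_cast hkn)
  rw [is_one_pretransitive_iff] at h1
  obtain ⟨h, hh⟩ := h1.exists_smul_eq ⟨a, ha⟩ ⟨b, hb⟩
  refine ⟨(h : G), (h : G).2, fun x hx => ?_, ?_⟩
  · exact (mem_fixingSubgroup_iff G).1 h.2 x hx
  · exact congrArg Subtype.val hh

theorem support_inv_mul_conj {α : Type*} [Fintype α] [DecidableEq α] (g h : Equiv.Perm α)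
    (F : Finset α) (hF : ∀ x ∈ F, h x = x) :
    (g⁻¹ * (h * g * h⁻¹)).support ⊆
      (g.support ∪ g.support.map h.toEmbedding) \ (F.filter fun x => g x ∈ F) := by
  intro x hx
  rw [Finset.mem_sdiff]
  constructor
  · by_contra hcon
    rw [Finset.mem_union, not_or] at hcon
    obtain ⟨h1, h2⟩ := hcon
    apply Equiv.Perm.mem_support.1 hx
    have h3 : (h * g * h⁻¹) x = x := by
      have h4 : h⁻¹ x ∉ g.support := by
        intro h5
        apply h2
        rw [Finset.mem_map]
        exact ⟨h⁻¹ x, h5, h.apply_symm_apply x⟩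
      rw [Equiv.Perm.mul_apply, Equiv.Perm.mul_apply, Equiv.Perm.notMem_support.1 h4]
      exact h.apply_symm_apply x
    rw [Equiv.Perm.mul_apply, h3, Equiv.Perm.inv_eq_iff_eq]
    exact (Equiv.Perm.notMem_support.1 h1).symm
  · intro hcon
    rw [Finset.mem_filter] at hcon
    obtain ⟨h1, h2⟩ := hcon
    apply Equiv.Perm.mem_support.1 hx
    have h3 : h⁻¹ x = x := by
      rw [Equiv.Perm.inv_eq_iff_eq]; exact (hF x h1).symm
    rw [Equiv.Perm.mul_apply, Equiv.Perm.mul_apply, Equiv.Perm.mul_apply, h3, hF _ h2]
    exact g.symm_apply_apply x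

/-- subsets of the support of any size with at most one exit -/
theorem exists_few_exits {α : Type*} [Fintype α] [DecidableEq α] (g : Equiv.Perm α) (j : ℕ)
    (hj : j ≤ g.support.card) : ∃ S : Finset α, S ⊆ g.support ∧ S.card = j ∧
      (S.filter fun x => g x ∉ S).card ≤ 1 := by
  induction j with
  | zero => exact ⟨∅, Finset.empty_subset _, rfl, by simp⟩
  | succ j ih =>
    obtain ⟨S, hS, hSj, hex⟩ := ih (by omega)
    rcases Finset.eq_empty_or_nonempty (S.filter fun x => g x ∉ S) with h0 | ⟨x, hx⟩
    · -- no exit: add any point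
      obtain ⟨y, hy, hyS⟩ : ∃ y ∈ g.support, y ∉ S := by
        by_contra hcon
        push Not at hcon
        have := Finset.card_le_card (show g.support ⊆ S from hcon)
        omega
      refine ⟨insert y S, Finset.insert_subset hy hS, by rw [Finset.card_insert_of_notMem hyS, hSj],
        ?_⟩
      rw [Finset.card_le_one]
      have hz : ∀ z ∈ (insert y S).filter (fun x => g x ∉ insert y S), z = y := by
        intro z hz
        rw [Finset.mem_filter, Finset.mem_insert, Finset.mem_insert, not_or] at hz
        rcases hz.1 with h1 | h1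
        · exact h1
        · exfalso
          have : z ∈ S.filter fun x => g x ∉ S := Finset.mem_filter.2 ⟨h1, hz.2.2⟩
          rw [h0] at this
          exact absurd this (Finset.notMem_empty z)
      intro a ha b hb
      rw [hz a ha, hz b hb]
    · have hx' := Finset.mem_filter.1 hx
      have hgx : g x ∈ g.support := by
        rw [Equiv.Perm.apply_mem_support]
        exact hS hx'.1
      refine ⟨insert (g x) S, Finset.insert_subset hgx hS,
        by rw [Finset.card_insert_of_notMem hx'.2, hSj], ?_⟩
      rw [Finset.card_le_one]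
      have hz : ∀ z ∈ (insert (g x) S).filter (fun y => g y ∉ insert (g x) S), z = g x := by
        intro z hz
        rw [Finset.mem_filter, Finset.mem_insert, Finset.mem_insert, not_or] at hz
        rcases hz.1 with h1 | h1
        · exact h1
        · exfalso
          have h2 : z ∈ S.filter fun x => g x ∉ S := Finset.mem_filter.2 ⟨h1, hz.2.2⟩
          rw [Finset.card_le_one] at hex
          have := hex z h2 x hx
          rw [this] at hz
          exact hz.2.1 rfl
      intro a ha b hb
      rw [hz a ha, hz b hb]

theorem map_support_eq {α : Type*} [Fintype α] [DecidableEq α] (g h : Equiv.Perm α) :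
    g.support.map h.toEmbedding = (h * g * h⁻¹).support := by
  ext x
  rw [Finset.mem_map, Equiv.Perm.mem_support]
  constructor
  · rintro ⟨y, hy, rfl⟩
    change (h * g * h⁻¹) (h y) ≠ h y
    rw [Equiv.Perm.mul_apply, Equiv.Perm.mul_apply]
    have : h⁻¹ (h y) = y := h.symm_apply_apply y
    rw [this]
    exact fun h1 => Equiv.Perm.mem_support.1 hy (h.injective h1)
  · intro hx
    refine ⟨h⁻¹ x, ?_, h.apply_symm_apply x⟩
    rw [Equiv.Perm.mem_support]
    intro h1
    apply hx
    rw [Equiv.Perm.mul_apply, Equiv.Perm.mul_apply, h1]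
    exact h.apply_symm_apply x

/-- counting the support of `g⁻¹ (h g h⁻¹)` -/
theorem card_support_inv_mul_conj {α : Type*} [Fintype α] [DecidableEq α] (g h : Equiv.Perm α)
    (F C : Finset α) (hF : ∀ x ∈ F, h x = x) (hFg : F ⊆ g.support) (hC : C ⊆ g.support)
    (hC' : C ⊆ g.support.map h.toEmbedding) :
    (g⁻¹ * (h * g * h⁻¹)).support.card + C.card + (F.filter fun x => g x ∈ F).card ≤
      2 * g.support.card := by
  have h1 := Finset.card_le_card (support_inv_mul_conj g h F hF)
  have h2 : (F.filter fun x => g x ∈ F) ⊆ g.support ∪ g.support.map h.toEmbedding :=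
    (Finset.filter_subset _ _).trans (hFg.trans Finset.subset_union_left)
  rw [Finset.card_sdiff_of_subset h2] at h1
  have h3 := Finset.card_le_card h2
  have h4 := Finset.card_union_add_card_inter g.support (g.support.map h.toEmbedding)
  rw [Finset.card_map] at h4
  have h5 := Finset.card_le_card (Finset.subset_inter hC hC')
  omega

theorem min_degree {α : Type*} [Fintype α] [DecidableEq α] (G : Subgroup (Equiv.Perm α)) {k : ℕ}
    (hk : 3 ≤ k) (hkn : k ≤ Fintype.card α) (hG : IsMultiplyPretransitive G α k)
    (g : Equiv.Perm α) (hg : g ∈ G) (hg1 : g ≠ 1) (hsupp : g.support.card < 2 * k - 2)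
    (hmin : ∀ h ∈ G, h ≠ 1 → g.support.card ≤ h.support.card) : g.support.card ≤ 3 := by
  classical
  by_contra hm4
  push Not at hm4
  obtain ⟨m, hm⟩ : ∃ m, m = g.support.card := ⟨_, rfl⟩
  rw [← hm] at hsupp hmin hm4
  have hk4 : 4 ≤ k := by omega
  have hmn : m ≤ Fintype.card α := by rw [hm]; exact Finset.card_le_univ _
  have hGc : ∀ h ∈ G, g⁻¹ * (h * g * h⁻¹) ∈ G := fun h hh =>
    G.mul_mem (G.inv_mem hg) (G.mul_mem (G.mul_mem hh hg) (G.inv_mem hh))
  rcases Nat.eq_or_lt_of_le hmn with heq | hlt
  · -- no fixed point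
    have hsu : g.support = Finset.univ := by
      rw [← Finset.card_eq_iff_eq_univ, ← hm, heq]
    have hmove : ∀ x, g x ≠ x := by
      intro x
      rw [← Equiv.Perm.mem_support, hsu]
      exact Finset.mem_univ x
    rcases Nat.lt_or_ge (Fintype.card α) 5 with h5 | h5
    · have hk' : k = Fintype.card α := by omega
      have htop : G = ⊤ := by
        apply Equiv.Perm.eq_top_of_isMultiplyPretransitive
        rw [Nat.card_eq_fintype_card]
        exact isMultiplyPretransitive_of_le (n := k) (by omega) (by
          rw [Nat.card_eq_fintype_card]; omega)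
      have : Nontrivial α := Fintype.one_lt_card_iff_nontrivial.1 (by omega)
      obtain ⟨a, b, hab⟩ := exists_pair_ne α
      have h1 := hmin (Equiv.swap a b) (by rw [htop]; trivial) (by
        intro h
        exact hab (Equiv.swap_eq_one_iff.1 h))
      rw [Equiv.Perm.card_support_swap hab] at h1
      omega
    obtain ⟨u⟩ : Nonempty α := Fintype.card_pos_iff.1 (by omega)
    obtain ⟨x, -, hx⟩ : ∃ x ∈ (Finset.univ : Finset α), x ∉ ({u, g u} : Finset α) := by
      apply Finset.exists_mem_notMem_of_card_lt_card
      rw [Finset.card_univ]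
      have := Finset.card_le_two (a := u) (b := g u)
      omega
    rw [Finset.mem_insert, Finset.mem_singleton, not_or] at hx
    have hgu : g u ∉ ({x, g x, u} : Finset α) := by
      rw [Finset.mem_insert, Finset.mem_insert, Finset.mem_singleton, not_or, not_or]
      exact ⟨fun h => hx.2 h.symm, fun h => hx.1 (g.injective h.symm), hmove u⟩
    have hF3 := Finset.card_le_three (a := x) (b := g x) (c := u)
    obtain ⟨a', -, ha'⟩ : ∃ a' ∈ (Finset.univ : Finset α),
        a' ∉ insert (g u) ({x, g x, u} : Finset α) := by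
      apply Finset.exists_mem_notMem_of_card_lt_card
      rw [Finset.card_univ]
      have := Finset.card_insert_le (g u) ({x, g x, u} : Finset α)
      omega
    rw [Finset.mem_insert, not_or] at ha'
    obtain ⟨h, hh, hfix, hmap⟩ := exists_fixing_mapping hkn hG {x, g x, u} (by omega) hgu ha'.2
    have h1 := support_inv_mul_conj g h {x, g x, u} hfix
    have h2 : (g⁻¹ * (h * g * h⁻¹)).support ⊆ Finset.univ \ {x} := by
      intro z hz
      rw [Finset.mem_sdiff, Finset.mem_singleton]
      refine ⟨Finset.mem_univ z, ?_⟩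
      rintro rfl
      have h3 := h1 hz
      rw [Finset.mem_sdiff] at h3
      apply h3.2
      rw [Finset.mem_filter]
      simp
    have h3 := Finset.card_le_card h2
    rw [Finset.card_sdiff_of_subset (Finset.subset_univ _), Finset.card_univ,
      Finset.card_singleton] at h3
    have h4 := hmin _ (hGc h hh) (by
      intro h5
      have h6 : h * g * h⁻¹ = g := (inv_mul_eq_one.1 h5).symm
      have h7 := DFunLike.congr_fun h6 u
      have h8 : h⁻¹ u = u := by
        rw [Equiv.Perm.inv_eq_iff_eq]; exact (hfix u (by simp)).symm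
      rw [Equiv.Perm.mul_apply, Equiv.Perm.mul_apply, h8, hmap] at h7
      exact ha'.1 h7)
    omega
  · -- there is a fixed point `w`
    obtain ⟨w, -, hw⟩ : ∃ w ∈ (Finset.univ : Finset α), w ∉ g.support := by
      apply Finset.exists_mem_notMem_of_card_lt_card
      rw [Finset.card_univ, ← hm]
      exact hlt
    have hinvfix : ∀ (h : Equiv.Perm α) (x : α), h x = x → h⁻¹ x = x := by
      intro h x hx
      rw [Equiv.Perm.inv_eq_iff_eq]; exact hx.symm
    obtain ⟨S, hS, hSc, hex⟩ := exists_few_exits g (min (k - 1) (m - 1)) (by omega)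
    have hfilt : (S.filter fun x => g x ∈ S).card + (S.filter fun x => g x ∉ S).card = S.card :=
      Finset.card_filter_add_card_filter_not _
    have hSmap : ∀ h : Equiv.Perm α, (∀ x ∈ S, h x = x) → S ⊆ g.support.map h.toEmbedding := by
      intro h hh x hx
      rw [Finset.mem_map]
      exact ⟨x, hS hx, hh x hx⟩
    rcases Finset.eq_empty_or_nonempty (S.filter fun x => g x ∉ S) with h0 | ⟨x, hx⟩
    · -- no exit
      obtain ⟨y, hy, hyS⟩ : ∃ y ∈ g.support, y ∉ S := by
        apply Finset.exists_mem_notMem_of_card_lt_card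
        omega
      have hwS : w ∉ S := fun h => hw (hS h)
      obtain ⟨h, hh, hfix, hmap⟩ := exists_fixing_mapping hkn hG S (by omega) hyS hwS
      have h1 := card_support_inv_mul_conj g h S S hfix hS hS (hSmap h hfix)
      rw [h0, Finset.card_empty] at hfilt
      have h4 := hmin _ (hGc h hh) (by
        intro h5
        have h6 : h * g * h⁻¹ = g := (inv_mul_eq_one.1 h5).symm
        apply hw
        rw [← h6, ← map_support_eq, Finset.mem_map]
        exact ⟨y, hy, hmap⟩)
      rw [← hm] at h1
      omega
    · have hx' := Finset.mem_filter.1 hx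
      have hcard1 : (S.filter fun x => g x ∉ S).card = 1 := by
        apply le_antisymm hex
        exact Finset.card_pos.2 ⟨x, hx⟩
      have hgx : g x ∈ g.support := by
        rw [Equiv.Perm.apply_mem_support]
        exact hS hx'.1
      rcases Nat.lt_or_ge k m with hkm | hkm
      · -- move to another point of the support
        obtain ⟨a', ha'1, ha'2⟩ : ∃ a' ∈ g.support, a' ∉ insert (g x) S := by
          apply Finset.exists_mem_notMem_of_card_lt_card
          rw [Finset.card_insert_of_notMem hx'.2]
          omega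
        rw [Finset.mem_insert, not_or] at ha'2
        obtain ⟨h, hh, hfix, hmap⟩ := exists_fixing_mapping hkn hG S (by omega) hx'.2 ha'2.2
        have h1 := card_support_inv_mul_conj g h S (insert a' S) hfix hS
          (Finset.insert_subset ha'1 hS) (Finset.insert_subset (by
            rw [Finset.mem_map]
            exact ⟨g x, hgx, hmap⟩) (hSmap h hfix))
        rw [Finset.card_insert_of_notMem ha'2.2] at h1
        have h4 := hmin _ (hGc h hh) (by
          intro h5
          have h6 : h * g * h⁻¹ = g := (inv_mul_eq_one.1 h5).symm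
          have h7 := DFunLike.congr_fun h6 x
          rw [Equiv.Perm.mul_apply, Equiv.Perm.mul_apply, hinvfix h x (hfix x hx'.1), hmap] at h7
          exact ha'2.1 h7)
        rw [← hm] at h1
        omega
      · -- move to the fixed point
        have hwS : w ∉ S := fun h => hw (hS h)
        obtain ⟨h, hh, hfix, hmap⟩ := exists_fixing_mapping hkn hG S (by omega) hx'.2 hwS
        have h1 := card_support_inv_mul_conj g h S S hfix hS hS (hSmap h hfix)
        have h4 := hmin _ (hGc h hh) (by
          intro h5
          have h6 : h * g * h⁻¹ = g := (inv_mul_eq_one.1 h5).symm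
          have h7 := DFunLike.congr_fun h6 x
          rw [Equiv.Perm.mul_apply, Equiv.Perm.mul_apply, hinvfix h x (hfix x hx'.1), hmap] at h7
          apply hw
          rw [h7]
          exact hgx)
        rw [← hm] at h1
        omega

theorem small_support {α : Type*} [Fintype α] [DecidableEq α] (G : Subgroup (Equiv.Perm α))
    {k : ℕ} (hk : 3 ≤ k) (hkn : k ≤ Fintype.card α) (hG : IsMultiplyPretransitive G α k)
    (g : Equiv.Perm α) (hg : g ∈ G) (hg1 : g ≠ 1) (hsupp : g.support.card < 2 * k - 2) :
    (∃ h : Equiv.Perm α, h ∈ G ∧ h ≠ 1 ∧ h.support.card ≤ 3) ∧ alternatingGroup α ≤ G := by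
  classical
  obtain ⟨h, ⟨hhG, hh1⟩, hmin⟩ := Set.exists_min_image {h : Equiv.Perm α | h ∈ G ∧ h ≠ 1}
    (fun h => h.support.card) (Set.toFinite _) ⟨g, hg, hg1⟩
  have h3 : h.support.card ≤ 3 := min_degree G hk hkn hG h hhG hh1
    (lt_of_le_of_lt (hmin g ⟨hg, hg1⟩) hsupp) (fun x hx hx1 => hmin x ⟨hx, hx1⟩)
  refine ⟨⟨h, hhG, hh1, h3⟩, ?_⟩
  have h2 : IsMultiplyPretransitive G α 2 := isMultiplyPretransitive_of_le (n := k) (by omega) (by
    rw [Nat.card_eq_fintype_card]; omega)
  have hprim : IsPreprimitive G α := isPreprimitive_of_is_two_pretransitive h2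
  have hpos : 2 ≤ h.support.card := Equiv.Perm.two_le_card_support_of_ne_one hh1
  rcases Nat.lt_or_ge h.support.card 3 with hlt | hge
  · have heq : h.support.card = 2 := by omega
    have hsw := Equiv.Perm.card_support_eq_two.1 heq
    rw [Equiv.Perm.subgroup_eq_top_of_isPreprimitive_of_isSwap_mem hprim h hsw hhG]
    exact le_top
  · have heq : h.support.card = 3 := by omega
    exact Equiv.Perm.alternatingGroup_le_of_isPreprimitive_of_isThreeCycle_mem hprim
      (card_support_eq_three_iff.1 heq) hhG

end Cfsg.Agent.H12
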